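import Mathlib
import Cfsg.Agent.H955.QElt
import Cfsg.Agent.H955.QMinus
import Cfsg.Agent.H150.SpForm
import Cfsg.Agent.H150.SpUnip
import Cfsg.Agent.H150.FormConv
import Cfsg.Agent.H376.SpEmb

/-!
# Isometries of order `r * s` of an even-dimensional quadratic space over a finite field (helper669)

`r`, `s` odd primes.  `exists_blk`: on orthogonal blocks.  `exists_same`: `q` has the same order modulo `r` and `s`.
`exists_char`: `p * s`, `p` the odd characteristic.
-/

set_option autoImplicit false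
set_option linter.style.haveILetI false

namespace Cfsg.Agent.H669.OAdj

open Module QuadraticMap Cfsg.Agent.H955 Cfsg.Agent.LieClassical.OrthCore
open Cfsg.Agent.LieClassical.OrthTrans
open Cfsg.Agent.ClassicalGeometry.SympBasic

universe u v w

/-! ### the torus -/

section Torus

variable {F : Type u} [Field F] [Finite F]

/-- an element of order `r` of `Sp_{2e}`, `2 e = cc q r`, has no fixed vectors. -/
theorem free_of_sp {e r : ℕ} [hr : Fact r.Prime] (hrF : ¬ r ∣ Nat.card F)
    (hcc : cc (Nat.card F) r = 2 * e) (x : (Fin e ⊕ Fin e → F) →ₗ[F] (Fin e ⊕ Fin e → F))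
    (hxB : ∀ v w, sympBilin e F (x v) (x w) = sympBilin e F v w) (hx : x ^ r = 1) (hx1 : x ≠ 1) :
    ∀ v, x v = v → v = 0 := by
  have hrF' := natCast_ne_zero_of_not_dvd hrF
  have hnd : ∀ u, (∀ v, sympBilin e F u v = 0) → u = 0 := fun u hu =>
    (sympBilin_nondegenerate (m := e) (F := F)).1 u hu
  set M := LinearMap.range (x - 1) with hM
  have hMB : ∀ u : M, (∀ v : M, sympBilin e F u v = 0) → u = 0 := fun u hu =>
    H150.nondeg_range hrF' (sympBilin e F) hnd x hx hxB u hu
  have hev := H150.even_finrank_of_alt (LinearMap.BilinForm.restrict (sympBilin e F) M)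
    (fun z => sympBilin_isAlt _) hMB
  have hinv : ∀ w ∈ M, x w ∈ M := by
    rintro _ ⟨v, rfl⟩
    refine ⟨x v, ?_⟩
    rw [LinearMap.sub_apply, LinearMap.sub_apply x 1 v, map_sub]
    rfl
  have hdvd : orderOf ((Nat.card F : ℕ) : ZMod r) ∣ finrank F M :=
    H150.dvd_finrank_of_fpf_submodule hr.out x hx _ hinv
      (fun v hv => H150.fpf_range hrF' x hx v hv)
  have hcd : cc (Nat.card F) r ∣ finrank F M := (cc_dvd_iff hev).2 hdvd
  have hM0 : M ≠ ⊥ := by
    intro h
    rw [hM, LinearMap.range_eq_bot, sub_eq_zero] at h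
    exact hx1 h
  have hpos : 0 < finrank F M := by
    rw [Nat.pos_iff_ne_zero]
    intro h
    exact hM0 (Submodule.finrank_eq_zero.1 h)
  have htop : M = ⊤ := by
    apply Submodule.eq_top_of_finrank_eq
    apply le_antisymm (Submodule.finrank_le _)
    rw [finrank_plus, ← hcc]
    exact Nat.le_of_dvd hpos hcd
  intro v hv
  refine H150.fpf_range hrF' x hx v ?_ hv
  rw [← hM, htop]
  trivial

theorem cc_eq_of_odd {q r : ℕ} (h : Odd (orderOf (q : ZMod r))) : cc q r = 2 * orderOf (q : ZMod r) := by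
  rw [cc, if_neg (Nat.not_even_iff_odd.2 h)]

theorem cc_eq_of_even {q r : ℕ} (h : Even (orderOf (q : ZMod r))) : cc q r = orderOf (q : ZMod r) := by
  rw [cc, if_pos h]

/-- an element of order `r * s` of `Sp_{2e}` -/
theorem exists_sp_rs {e r s : ℕ} [hr : Fact r.Prime] [hs : Fact s.Prime] (hrs : r ≠ s)
    (hrF : ¬ r ∣ Nat.card F) (hsF : ¬ s ∣ Nat.card F)
    (ho : orderOf ((Nat.card F : ℕ) : ZMod r) = orderOf ((Nat.card F : ℕ) : ZMod s))
    (hcc : cc (Nat.card F) r = 2 * e) :
    ∃ A : Matrix.symplecticGroup (Fin e) F, orderOf A = r * s := by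
  have hcop : Nat.Coprime r s := (Nat.coprime_primes hr.out hs.out).2 hrs
  have hq : 1 ≤ Nat.card F := Nat.card_pos
  have hq1 : 1 < Nat.card F := Finite.one_lt_card
  have hc := cc_pos (q := Nat.card F) hrF
  have he : e ≠ 0 := by omega
  by_cases hev : Even (orderOf ((Nat.card F : ℕ) : ZMod r))
  · have hh : ∀ t : ℕ, [Fact t.Prime] → ¬ t ∣ Nat.card F →
        orderOf ((Nat.card F : ℕ) : ZMod t) = orderOf ((Nat.card F : ℕ) : ZMod r) →
        t ∣ Nat.card F ^ e + 1 := by
      intro t _ htF hto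
      have h3 := pow_half_eq_neg_one (q := Nat.card F) htF (by rw [hto]; exact hev)
      rw [hto, show orderOf ((Nat.card F : ℕ) : ZMod r) / 2 = e by
        rw [cc_eq_of_even hev] at hcc; omega] at h3
      rw [← ZMod.natCast_eq_zero_iff]
      push_cast
      rw [h3]
      ring
    exact H376.SpEmb.exists_of_dvd (Nat.succ_ne_zero _)
      (hcop.mul_dvd_of_dvd_of_dvd (hh r hrF rfl) (hh s hsF ho.symm)) (H376.SpEmb.exists_plus F e he)
  · have hod : Odd (orderOf ((Nat.card F : ℕ) : ZMod r)) := Nat.not_even_iff_odd.1 hev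
    rw [cc_eq_of_odd hod] at hcc
    have h1 : r ∣ Nat.card F ^ e - 1 := (dvd_pow_sub_one_iff hq).2 (by
      rw [show orderOf ((Nat.card F : ℕ) : ZMod r) = e by omega])
    have h2 : s ∣ Nat.card F ^ e - 1 := (dvd_pow_sub_one_iff hq).2 (by
      rw [← ho, show orderOf ((Nat.card F : ℕ) : ZMod r) = e by omega])
    refine H376.SpEmb.exists_of_dvd ?_ (hcop.mul_dvd_of_dvd_of_dvd h1 h2)
      (H376.SpEmb.exists_minus F e he)
    have := Nat.one_lt_pow he hq1
    omega

/-- **the torus**: on a space of dimension `cc q r` and the right type there is an isometry of order `r * s`. -/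
theorem exists_torus {e r s : ℕ} [hr : Fact r.Prime] [hs : Fact s.Prime] (hr2 : r ≠ 2)
    (hrs : r ≠ s) (hrF : ¬ r ∣ Nat.card F) (hsF : ¬ s ∣ Nat.card F)
    (ho : orderOf ((Nat.card F : ℕ) : ZMod r) = orderOf ((Nat.card F : ℕ) : ZMod s))
    (hcc : cc (Nat.card F) r = 2 * e) {V : Type v} [AddCommGroup V] [Module F V]
    [FiniteDimensional F V] {Q : QuadraticForm F V} (hQ : Nondeg Q) (hd : finrank F V = 2 * e)
    (hP : IsPlus Q ↔ Odd (orderOf ((Nat.card F : ℕ) : ZMod r))) : ∃ T : O Q, orderOf T = r * s := by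
  obtain ⟨A, hA⟩ := exists_sp_rs hrs hrF hsF ho hcc
  have hr3 : 2 < r := lt_of_le_of_ne hr.out.two_le (Ne.symm hr2)
  have hpos : 0 < r * s := Nat.mul_pos hr.out.pos hs.out.pos
  set a := H150.spLin A with ha
  have haB : ∀ v w, sympBilin e F (a v) (a w) = sympBilin e F v w := H150.spLin_isom A
  have hao : ∀ j : ℕ, a ^ j = 1 ↔ A ^ j = 1 := by
    intro j
    rw [ha]
    unfold H150.spLin
    rw [← map_pow]
    constructor
    · intro h
      apply Subtype.ext
      rw [SubmonoidClass.coe_pow]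
      apply (Matrix.toLinAlgEquiv' (R := F)).injective
      rw [h]
      exact (map_one _).symm
    · intro h
      have h1 := congrArg Subtype.val h
      rw [SubmonoidClass.coe_pow] at h1
      rw [h1]
      exact map_one _
  have hapow : ∀ (j : ℕ) (v w), sympBilin e F ((a ^ j) v) ((a ^ j) w) = sympBilin e F v w := by
    intro j
    induction j with
    | zero => intro v w; rw [pow_zero]; rfl
    | succ j ih => intro v w; rw [pow_succ, Module.End.mul_apply, Module.End.mul_apply, ih, haB]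
  set x := a ^ s with hx
  have hxr : x ^ r = 1 := by
    rw [hx, ← pow_mul, mul_comm, hao, ← hA, pow_orderOf_eq_one]
  have hx1 : x ≠ 1 := by
    rw [hx, Ne, hao, ← orderOf_dvd_iff_pow_eq_one, hA]
    intro h
    have h1 : r ∣ s := (Dvd.intro _ rfl).trans h
    exact hrs ((Nat.prime_dvd_prime_iff_eq hr.out hs.out).1 h1)
  have hxB : ∀ v w, sympBilin e F (x v) (x w) = sympBilin e F v w := hapow s
  have hfree := free_of_sp hrF hcc x hxB hxr hx1
  have hnd : ∀ u, (∀ v, sympBilin e F u v = 0) → u = 0 := fun u hu =>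
    (sympBilin_nondegenerate (m := e) (F := F)).1 u hu
  set R := H150.symQuad (sympBilin e F) x with hR
  have hRnd : Nondeg R := fun u hu => H150.symQuad_nd (sympBilin e F) (fun z => sympBilin_isAlt _)
    hnd (hr.out.odd_of_ne_two hr2) x hxB hxr hfree u hu
  have hRa : ∀ v, R (a v) = R v := by
    intro v
    refine H150.symQuad_map _ x a haB (fun v => ?_) v
    rw [hx, ← Module.End.mul_apply, ← Module.End.mul_apply, ← pow_succ, ← pow_succ']
  have hRx : ∀ v, R (x v) = R v := fun v => H150.symQuad_map _ x x hxB (fun v => rfl) v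
  -- isometries as linear equivalences
  have mk : ∀ T : (Fin e ⊕ Fin e → F) →ₗ[F] (Fin e ⊕ Fin e → F), T ^ (r * s) = 1 →
      (∀ v, R (T v) = R v) → ∃ g : O R, ∀ v, (g : (Fin e ⊕ Fin e → F) ≃ₗ[F] (Fin e ⊕ Fin e → F)) v = T v := by
    intro T hT hTR
    refine ⟨⟨LinearEquiv.ofLinearMap T (T ^ (r * s - 1)) ?_ ?_, ?_⟩, ?_⟩
    · apply LinearMap.ext; intro v
      exact H150.mul_pow_sub_one hpos hT v
    · apply LinearMap.ext; intro v
      exact H150.pow_sub_one_mul hpos hT v
    · intro v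
      exact hTR v
    · intro v
      rfl
  obtain ⟨ga, hga⟩ := mk a (by rw [hao, ← hA, pow_orderOf_eq_one]) hRa
  obtain ⟨gx, hgx⟩ := mk x (by rw [pow_mul, hxr, one_pow]) hRx
  have hpowa : ∀ (j : ℕ) (v), ((ga ^ j : O R) : (Fin e ⊕ Fin e → F) ≃ₗ[F] (Fin e ⊕ Fin e → F)) v = (a ^ j) v := by
    intro j
    induction j with
    | zero => intro v; rw [pow_zero, pow_zero]; rfl
    | succ j ih =>
      intro v
      rw [pow_succ, pow_succ, Module.End.mul_apply, ← hga]
      exact ih _
  have hgao : orderOf ga = r * s := by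
    rw [← hA]
    apply H150.orderOf_eq_of_forall
    intro j
    rw [orderOf_dvd_iff_pow_eq_one, ← hao]
    constructor
    · intro h
      apply LinearMap.ext
      intro v
      rw [← hpowa, h]
      rfl
    · intro h
      apply Subtype.ext
      apply LinearEquiv.ext
      intro v
      rw [hpowa, h]
      rfl
  have hgxr : (gx : (Fin e ⊕ Fin e → F) ≃ₗ[F] (Fin e ⊕ Fin e → F)) ^ r = 1 := by
    apply LinearEquiv.ext
    intro v
    have h1 : ∀ (j : ℕ) (v), ((gx : (Fin e ⊕ Fin e → F) ≃ₗ[F] (Fin e ⊕ Fin e → F)) ^ j) v = (x ^ j) v := by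
      intro j
      induction j with
      | zero => intro v; rw [pow_zero, pow_zero]; rfl
      | succ j ih =>
        intro v
        rw [pow_succ, pow_succ, Module.End.mul_apply, ← hgx]
        exact ih _
    rw [h1, hxr]
    rfl
  have hRP : IsPlus R ↔ Odd (orderOf ((Nat.card F : ℕ) : ZMod r)) := by
    have := isPlus_iff_of_cc hRnd gx.2 hr3 hrF hgxr (fun v hv => hfree v (by rw [← hgx]; exact hv))
      (s := 1) (by rw [mul_one, hcc, finrank_plus])
    simpa using this
  obtain ⟨E, hE⟩ := exists_equiv_of_isPlus_iff hRnd hQ (by rw [finrank_plus]; exact even_two_mul e)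
    (by rw [finrank_plus, hd]) (hRP.trans hP.symm)
  exact ⟨OEquiv E hE ga, by rw [MulEquiv.orderOf_eq, hgao]⟩

end Torus

/-! ### gluing -/

section Glue

variable {F : Type u} [Field F] {V : Type v} [AddCommGroup V] [Module F V]
  [FiniteDimensional F V] {Q : QuadraticForm F V}

/-- gluing as a homomorphism between isometry groups -/
noncomputable def glueO {W : Submodule F V} (h : Nondeg (res Q W)) :
    O (res Q W) × O (res Q (perp Q W)) →* O Q where
  toFun p := ⟨glue h (p.1.1, p.2.1), (glue_mem_O h).2 ⟨p.1.2, p.2.2⟩⟩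
  map_one' := Subtype.ext (map_one (glue h))
  map_mul' p p' := Subtype.ext (map_mul (glue h) (p.1.1, p.2.1) (p'.1.1, p'.2.1))

theorem glueO_injective {W : Submodule F V} (h : Nondeg (res Q W)) : Function.Injective (glueO h) := by
  intro p p' hp
  have h1 := glue_injective h (congrArg Subtype.val hp)
  exact Prod.ext (Subtype.ext (congrArg Prod.fst h1)) (Subtype.ext (congrArg Prod.snd h1))

theorem orderOf_glueO {W : Submodule F V} (h : Nondeg (res Q W))
    (p : O (res Q W) × O (res Q (perp Q W))) :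
    orderOf (glueO h p) = (orderOf p.1).lcm (orderOf p.2) := by
  rw [orderOf_injective _ (glueO_injective h), Prod.orderOf]

/-- an element of the isometry group of a nondegenerate subspace -/
theorem exists_of_sub {W : Submodule F V} (h : Nondeg (res Q W)) {n : ℕ}
    (hW : ∃ T : O (res Q W), orderOf T = n) : ∃ T : O Q, orderOf T = n := by
  obtain ⟨T, hT⟩ := hW
  exact ⟨glueO h (T, 1), by rw [orderOf_glueO, hT, orderOf_one, Nat.lcm_one_right]⟩

theorem exists_of_sub2 {W : Submodule F V} (h : Nondeg (res Q W)) {r s : ℕ} (hrs : Nat.Coprime r s)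
    (hW : ∃ T : O (res Q W), orderOf T = r) (hW' : ∃ T : O (res Q (perp Q W)), orderOf T = s) :
    ∃ T : O Q, orderOf T = r * s := by
  obtain ⟨T, hT⟩ := hW
  obtain ⟨T', hT'⟩ := hW'
  exact ⟨glueO h (T, T'), by rw [orderOf_glueO, hT, hT', hrs.lcm_eq_mul]⟩

end Glue

/-! ### the three cases -/

section Main

variable {F : Type u} [Field F] [Finite F] {V : Type v} [AddCommGroup V] [Module F V]
  [FiniteDimensional F V] {Q : QuadraticForm F V}

theorem finite_O (Q : QuadraticForm F V) : Finite (O Q) := by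
  have hfinV : Finite V := Module.finite_of_finite F
  have hfinL : Finite (V ≃ₗ[F] V) := Finite.of_injective (fun g : V ≃ₗ[F] V => (g : V → V))
    DFunLike.coe_injective
  infer_instance

/-- an isometry of order `r` on a space of dimension `cc q r` and the right type -/
theorem exists_order_one {r : ℕ} [hr : Fact r.Prime] (hr2 : r ≠ 2) (hrF : ¬ r ∣ Nat.card F)
    (hQ : Nondeg Q) (hd : finrank F V = cc (Nat.card F) r)
    (hP : IsPlus Q ↔ Odd (orderOf (Nat.card F : ZMod r))) : ∃ T : O Q, orderOf T = r := by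
  have hr3 : 2 < r := lt_of_le_of_ne hr.out.two_le (Ne.symm hr2)
  obtain ⟨T, hT, hTr, hf⟩ := exists_free_one hr3 hrF hQ hd hP
  refine ⟨⟨T, hT⟩, orderOf_eq_prime (Subtype.ext hTr) ?_⟩
  intro h
  have h1 : T = 1 := congrArg Subtype.val h
  have hc := cc_pos (q := Nat.card F) hrF
  have hnt : Nontrivial V := Module.nontrivial_of_finrank_pos (R := F) (by omega)
  obtain ⟨v, hv⟩ := exists_ne (0 : V)
  exact hv (hf v (by rw [h1]; rfl))

/-- a nondegenerate subspace of dimension `cc q r` carrying an isometry of order `r` -/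
theorem exists_sub_order {r : ℕ} [hr : Fact r.Prime] (hr2 : r ≠ 2) (hrF : ¬ r ∣ Nat.card F)
    (hQ : Nondeg Q) (hev : Even (finrank F V)) (hlt : cc (Nat.card F) r < finrank F V) :
    ∃ W : Submodule F V, Nondeg (res Q W) ∧ finrank F W = cc (Nat.card F) r ∧
      ∃ T : O (res Q W), orderOf T = r := by
  have hc := cc_pos (q := Nat.card F) hrF
  obtain ⟨c, hc2⟩ := even_cc (Nat.card F) r
  obtain ⟨W, hW, hWd, hWP⟩ := exists_subspace hQ hev c (by omega) (by omega)
    (Odd (orderOf (Nat.card F : ZMod r)))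
  exact ⟨W, hW, by omega, exists_order_one hr2 hrF hW (by omega) hWP⟩

/-- **blocks**: `cc q r + cc q s < dim V`. -/
theorem exists_blk {r s : ℕ} [hr : Fact r.Prime] [hs : Fact s.Prime] (hr2 : r ≠ 2) (hs2 : s ≠ 2)
    (hrs : r ≠ s) (hrF : ¬ r ∣ Nat.card F) (hsF : ¬ s ∣ Nat.card F)
    (hQ : Nondeg Q) (hev : Even (finrank F V))
    (hlt : cc (Nat.card F) r + cc (Nat.card F) s < finrank F V) : ∃ T : O Q, orderOf T = r * s := by
  have hcop : Nat.Coprime r s := (Nat.coprime_primes hr.out hs.out).2 hrs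
  obtain ⟨W, hW, hWd, hWT⟩ := exists_sub_order hr2 hrF hQ hev (by omega)
  have h3 := finrank_add_perp hQ W
  have hWp := nondeg_perp hQ hW
  have hev' : Even (finrank F (perp Q W)) := by
    have h4 := even_cc (Nat.card F) r
    rw [← hWd] at h4
    rw [← h3] at hev
    exact (Nat.even_add.1 hev).1 h4
  obtain ⟨W', hW', hWd', hWT'⟩ := exists_sub_order (Q := res Q (perp Q W)) hs2 hsF hWp hev' (by omega)
  exact exists_of_sub2 hW hcop hWT (exists_of_sub hW' hWT')

/-- **same order of `q`** modulo `r` and `s`, `r` dividing the order of the isometry group. -/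
theorem exists_same {r s : ℕ} [hr : Fact r.Prime] [hs : Fact s.Prime] (hr2 : r ≠ 2)
    (hrs : r ≠ s) (hrF : ¬ r ∣ Nat.card F) (hsF : ¬ s ∣ Nat.card F)
    (ho : orderOf ((Nat.card F : ℕ) : ZMod r) = orderOf ((Nat.card F : ℕ) : ZMod s))
    (hQ : Nondeg Q) (hrG : r ∣ Nat.card (O Q)) : ∃ T : O Q, orderOf T = r * s := by
  have hr3 : 2 < r := lt_of_le_of_ne hr.out.two_le (Ne.symm hr2)
  have hrF' := natCast_ne_zero_of_not_dvd hrF
  have := finite_O Q
  obtain ⟨⟨T, hT⟩, hTo⟩ := exists_prime_orderOf_dvd_card' r hrG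
  have hTr : T ^ r = 1 := by
    have := pow_orderOf_eq_one (⟨T, hT⟩ : O Q)
    rw [hTo] at this
    exact congrArg Subtype.val this
  have hT1 : T ≠ 1 := by
    rintro rfl
    have h1 : orderOf (1 : O Q) = 1 := orderOf_one
    have h3 : (⟨1, hT⟩ : O Q) = 1 := rfl
    rw [h3, h1] at hTo
    omega
  obtain ⟨hcn, t, ht, -⟩ := blocks_of_comS hQ hT hr3 hrF hTr
  have ht0 : t ≠ 0 := by
    rintro rfl
    rw [mul_zero, Submodule.finrank_eq_zero] at ht
    apply hT1
    ext v
    have h1 := sub_mem_comS T v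
    rw [ht, Submodule.mem_bot, sub_eq_zero] at h1
    exact h1
  obtain ⟨D, -, -, hDn, hDd, hDP⟩ := exists_blocks_quad hT hr3 hrF hTr (inv_comS T) hcn
    (free_comS hrF' hTr) 1 (by
      rw [mul_one, ht]
      exact Nat.le_mul_of_pos_right _ (Nat.pos_of_ne_zero ht0))
  obtain ⟨e, he⟩ := even_cc (Nat.card F) r
  exact exists_of_sub hDn (exists_torus (e := e) hr2 hrs hrF hsF ho (by omega) hDn (by omega)
    (by simpa using hDP))

/-- an isometry of order the characteristic in dimension at least four -/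
theorem exists_order_char {p : ℕ} [hp : Fact p.Prime] (hpF : p ∣ Nat.card F) (hQ : Nondeg Q)
    (hev : Even (finrank F V)) (hd : 4 ≤ finrank F V) : ∃ T : O Q, orderOf T = p := by
  have := finite_O Q
  obtain ⟨m, hm⟩ := hev
  have hdvd : p ∣ Nat.card F ^ (m * (m - 1)) := by
    refine dvd_pow hpF ?_
    have h1 : 0 < m * (m - 1) := Nat.mul_pos (by omega) (by omega)
    exact h1.ne'
  obtain ⟨T, hT⟩ := exists_prime_orderOf_dvd_card' (G := O Q) p (by
    by_cases hP : IsPlus Q
    · rw [card_O_of_isPlus hQ (m := m) (by omega) (by omega) hP]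
      exact Dvd.dvd.mul_right (Dvd.dvd.mul_right (Dvd.dvd.mul_left hdvd _) _) _
    · rw [card_O_of_not_isPlus hQ (m := m) (by omega) hP]
      exact Dvd.dvd.mul_right (Dvd.dvd.mul_right (Dvd.dvd.mul_left hdvd _) _) _)
  exact ⟨T, hT⟩

/-- **the characteristic and `s`**: `cc q s + 4 ≤ dim V`. -/
theorem exists_char {p s : ℕ} [hp : Fact p.Prime] [hs : Fact s.Prime] (hs2 : s ≠ 2) (hps : p ≠ s)
    (hpF : p ∣ Nat.card F) (hsF : ¬ s ∣ Nat.card F) (hQ : Nondeg Q) (hev : Even (finrank F V))
    (hlt : cc (Nat.card F) s + 4 ≤ finrank F V) : ∃ T : O Q, orderOf T = p * s := by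
  have hcop : Nat.Coprime s p := (Nat.coprime_primes hs.out hp.out).2 hps.symm
  obtain ⟨W, hW, hWd, hWT⟩ := exists_sub_order hs2 hsF hQ hev (by omega)
  have h3 := finrank_add_perp hQ W
  have hWp := nondeg_perp hQ hW
  have hev' : Even (finrank F (perp Q W)) := by
    have h4 := even_cc (Nat.card F) s
    rw [← hWd] at h4
    rw [← h3] at hev
    exact (Nat.even_add.1 hev).1 h4
  rw [mul_comm]
  exact exists_of_sub2 hW hcop hWT (exists_order_char hpF hWp hev' (by omega))

end Main

end Cfsg.Agent.H669.OAdj
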