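import Mathlib
import Cfsg.Agent.H669.OAdjAbs
import Cfsg.Agent.H376.PrimeOrd
import Cfsg.Agent.LieClassical.OrthCenter
import Cfsg.Agent.ClassicalGeometry.OrthDickson
import Cfsg.Agent.ClassicalGeometry.SiegelGen

/-!
# Adjacency of odd primes in the prime graphs of `PΩ⁺` and `PΩ⁻` (helper669)

`pomega_plus_adj`, `pomega_minus_adj`: two odd primes `r`, `s` not dividing `q` with `η(k) + η(l) + 1 ≤ m` or `k = l`
(`k`, `l` the orders of `q` modulo `r`, `s`) are adjacent.  `pomega_plus_adj_char`, `pomega_minus_adj_char`: the odd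
characteristic `p` and `s` with `η(l) + 2 ≤ m` are adjacent.
-/

set_option autoImplicit false

namespace Cfsg.Agent.H669.OAdj

open Module QuadraticMap Cfsg Cfsg.Agent.H955 Cfsg.Agent.LieClassical.OrthCore
open Cfsg.Agent.LieClassical.OrthTrans Cfsg.Agent.LieClassical.QuadForms
open Cfsg.Agent.LieClassical.OrthFinite

section Transfer

variable {ι : Type} [Fintype ι] [DecidableEq ι] {F : Type*} [Field F] [Finite F]

/-- isometries of odd order lie in `Ω`. -/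
theorem odd_mem_omega (Q : QuadraticForm F (ι → F)) (hQ : (polarBilin Q).Nondegenerate)
    (hn : 5 ≤ Fintype.card ι) (g : isometryGroup F (⇑Q)) {N : ℕ} (hN : Odd N) (hg : g ^ N = 1) :
    g ∈ commutator (isometryGroup F (⇑Q)) := by
  obtain ⟨m, rfl⟩ := hN
  have h1 : g = g ^ (m + 1) * g ^ (m + 1) := by
    rw [← pow_add]
    have : (m + 1) + (m + 1) = (2 * m + 1) + 1 := by ring
    rw [this, pow_succ, hg, one_mul]
  by_cases h2 : (2 : F) = 0
  · have : Nonempty ι := Fintype.card_pos_iff.1 (by omega)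
    have hi := ClassicalGeometry.OrthDickson.index_commutator_two (Q := Q) h2 hQ (Or.inr (by omega))
    rw [h1]
    exact Subgroup.mul_self_mem_of_index_two hi _
  · rw [h1]
    exact ClassicalGeometry.SiegelGen.mul_self_mem_commutator h2 Q hQ _

/-- elements of odd order of `POmega` from isometries -/
theorem exists_pomega (Q : QuadraticForm F (ι → F)) (hQ : Nondeg Q)
    (hn : 5 ≤ Fintype.card ι) {N : ℕ} (hN : Odd N)
    (hT : ∃ T : O Q, orderOf T = N) : ∃ g : POmega F (⇑Q), orderOf g = N := by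
  obtain ⟨T, hT⟩ := hT
  have hQ' := nondegenerate_of_nondeg hQ
  have hs : ∃ u : ι → F, u ≠ 0 ∧ Q u = 0 := by
    obtain ⟨w, -, hw0, hw⟩ := exists_sing_mem (Q := Q) ⊤ (by rw [finrank_top]; simp; omega)
    exact ⟨w, hw0, hw⟩
  set g := (isometryEquiv Q).symm T with hg
  have hgo : orderOf g = N := by rw [hg, MulEquiv.orderOf_eq, hT]
  have hmem : g ∈ Omega F (⇑Q) := odd_mem_omega Q hQ' hn g hN (by rw [← hgo, pow_orderOf_eq_one])
  refine ⟨QuotientGroup.mk ⟨g, hmem⟩, ?_⟩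
  refine H376.PrimeOrd.orderOf_mk (Subgroup.center (Omega F (⇑Q))) (z := 2) (fun x hx => ?_)
    (Nat.coprime_two_left.2 hN) _ ?_
  · have h1 := (LieClassical.OrthCenter.mem_center_omega_iff hQ' (by omega) hs x).1 hx
    apply Subtype.ext
    apply Subtype.ext
    apply Units.ext
    have h2 : (((x ^ 2 : Omega F (⇑Q)) : isometryGroup F (⇑Q)) : Matrix.GeneralLinearGroup ι F).val =
        (((x : Omega F (⇑Q)) : isometryGroup F (⇑Q)) : Matrix.GeneralLinearGroup ι F).val ^ 2 := rfl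
    change (((x ^ 2 : Omega F (⇑Q)) : isometryGroup F (⇑Q)) : Matrix.GeneralLinearGroup ι F).val = 1
    rw [h2]
    rcases h1 with h1 | h1
    · rw [h1, one_pow]
    · rw [h1]
      simp
  · rw [← hgo]
    exact Subgroup.orderOf_mk g hmem

theorem dvd_card_O (Q : QuadraticForm F (ι → F)) {r : ℕ}
    (h : r ∣ Nat.card (POmega F (⇑Q))) : r ∣ Nat.card (O Q) := by
  rw [← Nat.card_congr (isometryEquiv Q).toEquiv]
  exact (h.trans (Subgroup.card_quotient_dvd_card _)).trans (Subgroup.card_subgroup_dvd_card _)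

end Transfer

section Num

theorem cc_eq {q r k η : ℕ} (hk : k = orderOf ((q : ℕ) : ZMod r))
    (hη : (Odd k ∧ η = k) ∨ (Even k ∧ 2 * η = k)) : cc q r = 2 * η := by
  subst hk
  rcases hη with ⟨h, rfl⟩ | ⟨h, h'⟩
  · exact cc_eq_of_odd h
  · rw [cc_eq_of_even h, h']

end Num

section Main

variable {F : Type*} [Field F] [Fintype F]

theorem adj_abs {ι : Type} [Fintype ι] [DecidableEq ι] {m : ℕ} (hm : 4 ≤ m)
    (Q : QuadraticForm F (ι → F)) (hQ : Nondeg Q) (hc : Fintype.card ι = 2 * m) {r s : ℕ} (hr : r.Prime)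
    (hs : s.Prime) (hr2 : r ≠ 2) (hs2 : s ≠ 2) (hrs : r ≠ s) (hrF : ¬ r ∣ Fintype.card F)
    (hsF : ¬ s ∣ Fintype.card F) (hrG : r ∣ Nat.card (POmega F (⇑Q)))
    {k l ηk ηl : ℕ} (hk : k = orderOf ((Fintype.card F : ℕ) : ZMod r))
    (hl : l = orderOf ((Fintype.card F : ℕ) : ZMod s))
    (hηk : (Odd k ∧ ηk = k) ∨ (Even k ∧ 2 * ηk = k)) (hηl : (Odd l ∧ ηl = l) ∨ (Even l ∧ 2 * ηl = l))
    (h : ηk + ηl + 1 ≤ m ∨ k = l) : ∃ g : POmega F (⇑Q), orderOf g = r * s := by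
  have := Fact.mk hr
  have := Fact.mk hs
  have hd : finrank F (ι → F) = 2 * m := by rw [Module.finrank_fintype_fun_eq_card, hc]
  rw [← Nat.card_eq_fintype_card] at hrF hsF hk hl
  refine exists_pomega Q hQ (by omega) ((hr.odd_of_ne_two hr2).mul (hs.odd_of_ne_two hs2)) ?_
  have hck := cc_eq hk hηk
  have hcl := cc_eq hl hηl
  rcases h with h | h
  · exact exists_blk hr2 hs2 hrs hrF hsF hQ (by rw [hd]; exact even_two_mul m) (by omega)
  · exact exists_same hr2 hrs hrF hsF (by rw [← hk, ← hl, h]) hQ (dvd_card_O Q hrG)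

theorem adj_char_abs {ι : Type} [Fintype ι] [DecidableEq ι] {m : ℕ} (hm : 4 ≤ m)
    (Q : QuadraticForm F (ι → F)) (hQ : Nondeg Q) (hc : Fintype.card ι = 2 * m) {p : ℕ}
    [hp' : Fact p.Prime] [CharP F p] (hp : p ≠ 2) {s : ℕ} (hs : s.Prime) (hs2 : s ≠ 2) (hsp : s ≠ p)
    {l ηl : ℕ} (hl : l = orderOf ((Fintype.card F : ℕ) : ZMod s))
    (hηl : (Odd l ∧ ηl = l) ∨ (Even l ∧ 2 * ηl = l)) (h : ηl + 2 ≤ m) :
    ∃ g : POmega F (⇑Q), orderOf g = p * s := by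
  have := Fact.mk hs
  have hd : finrank F (ι → F) = 2 * m := by rw [Module.finrank_fintype_fun_eq_card, hc]
  obtain ⟨n, -, hn⟩ := FiniteField.card F p
  have hpF : p ∣ Nat.card F := by
    rw [Nat.card_eq_fintype_card, hn]
    exact dvd_pow_self p n.ne_zero
  have hsF : ¬ s ∣ Nat.card F := by
    rw [Nat.card_eq_fintype_card, hn]
    intro h
    exact hsp ((Nat.prime_dvd_prime_iff_eq hs hp'.out).1 (hs.dvd_of_dvd_pow h))
  rw [← Nat.card_eq_fintype_card] at hl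
  have hcl := cc_eq hl hηl
  refine exists_pomega Q hQ (by omega) ((hp'.out.odd_of_ne_two hp).mul (hs.odd_of_ne_two hs2)) ?_
  exact exists_char hs2 (Ne.symm hsp) hpF hsF hQ (by rw [hd]; exact even_two_mul m) (by omega)

/-- **`PΩ⁺_{2m}(q)`**, two odd primes not dividing `q`. -/
theorem pomega_plus_adj {m : ℕ} (hm : 4 ≤ m) {r s : ℕ} (hr : r.Prime)
    (hs : s.Prime) (hr2 : r ≠ 2) (hs2 : s ≠ 2) (hrs : r ≠ s) (hrF : ¬ r ∣ Fintype.card F)
    (hsF : ¬ s ∣ Fintype.card F)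
    (hrG : r ∣ Nat.card (POmega F (quadFormPlus m F))) (_hsG : s ∣ Nat.card (POmega F (quadFormPlus m F)))
    {k l ηk ηl : ℕ} (hk : k = orderOf ((Fintype.card F : ℕ) : ZMod r))
    (hl : l = orderOf ((Fintype.card F : ℕ) : ZMod s))
    (hηk : (Odd k ∧ ηk = k) ∨ (Even k ∧ 2 * ηk = k)) (hηl : (Odd l ∧ ηl = l) ∨ (Even l ∧ 2 * ηl = l))
    (h : ηk + ηl + 1 ≤ m ∨ k = l) : ∃ g : POmega F (quadFormPlus m F), orderOf g = r * s := by
  rw [← coe_plusForm (F := F) m] at hrG ⊢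
  exact adj_abs hm (plusForm m F) (nondeg_plus m)
    (by rw [Fintype.card_sum, Fintype.card_fin]; ring) hr hs hr2 hs2 hrs hrF hsF hrG hk hl hηk hηl h

/-- **`PΩ⁺_{2m}(q)`**, the odd characteristic and an odd prime. -/
theorem pomega_plus_adj_char {m : ℕ} (hm : 4 ≤ m) {p : ℕ} [Fact p.Prime] [CharP F p]
    (hp : p ≠ 2) {s : ℕ} (hs : s.Prime) (hs2 : s ≠ 2) (hsp : s ≠ p)
    {l ηl : ℕ} (hl : l = orderOf ((Fintype.card F : ℕ) : ZMod s))
    (hηl : (Odd l ∧ ηl = l) ∨ (Even l ∧ 2 * ηl = l)) (h : ηl + 2 ≤ m) :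
    ∃ g : POmega F (quadFormPlus m F), orderOf g = p * s := by
  rw [← coe_plusForm (F := F) m]
  exact adj_char_abs hm (plusForm m F) (nondeg_plus m)
    (by rw [Fintype.card_sum, Fintype.card_fin]; ring) hp hs hs2 hsp hl hηl h

/-- **`PΩ⁻_{2m}(q)`**, two odd primes not dividing `q`. -/
theorem pomega_minus_adj {m : ℕ} (hm : 4 ≤ m) {a b : F}
    (hab : ∀ z₁ z₂ : F, z₁ ^ 2 + a * z₁ * z₂ + b * z₂ ^ 2 = 0 → z₁ = 0 ∧ z₂ = 0) {r s : ℕ} (hr : r.Prime)
    (hs : s.Prime) (hr2 : r ≠ 2) (hs2 : s ≠ 2) (hrs : r ≠ s) (hrF : ¬ r ∣ Fintype.card F)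
    (hsF : ¬ s ∣ Fintype.card F)
    (hrG : r ∣ Nat.card (POmega F (quadFormMinus (m - 1) F a b)))
    (_hsG : s ∣ Nat.card (POmega F (quadFormMinus (m - 1) F a b)))
    {k l ηk ηl : ℕ} (hk : k = orderOf ((Fintype.card F : ℕ) : ZMod r))
    (hl : l = orderOf ((Fintype.card F : ℕ) : ZMod s))
    (hηk : (Odd k ∧ ηk = k) ∨ (Even k ∧ 2 * ηk = k)) (hηl : (Odd l ∧ ηl = l) ∨ (Even l ∧ 2 * ηl = l))
    (h : ηk + ηl + 1 ≤ m ∨ k = l) : ∃ g : POmega F (quadFormMinus (m - 1) F a b), orderOf g = r * s := by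
  rw [← coe_minusForm (F := F) (m - 1) a b] at hrG ⊢
  exact adj_abs hm (minusForm (m - 1) F a b) (nondeg_minus (m - 1) hab)
    (by simp only [Fintype.card_sum, Fintype.card_fin]; omega) hr hs hr2 hs2 hrs hrF hsF hrG hk hl hηk hηl h

/-- **`PΩ⁻_{2m}(q)`**, the odd characteristic and an odd prime. -/
theorem pomega_minus_adj_char {m : ℕ} (hm : 4 ≤ m) {a b : F}
    (hab : ∀ z₁ z₂ : F, z₁ ^ 2 + a * z₁ * z₂ + b * z₂ ^ 2 = 0 → z₁ = 0 ∧ z₂ = 0) {p : ℕ} [Fact p.Prime]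
    [CharP F p] (hp : p ≠ 2) {s : ℕ} (hs : s.Prime) (hs2 : s ≠ 2) (hsp : s ≠ p)
    {l ηl : ℕ} (hl : l = orderOf ((Fintype.card F : ℕ) : ZMod s))
    (hηl : (Odd l ∧ ηl = l) ∨ (Even l ∧ 2 * ηl = l)) (h : ηl + 2 ≤ m) :
    ∃ g : POmega F (quadFormMinus (m - 1) F a b), orderOf g = p * s := by
  rw [← coe_minusForm (F := F) (m - 1) a b]
  exact adj_char_abs hm (minusForm (m - 1) F a b) (nondeg_minus (m - 1) hab)
    (by simp only [Fintype.card_sum, Fintype.card_fin]; omega) hp hs hs2 hsp hl hηl h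

end Main

end Cfsg.Agent.H669.OAdj
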